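import Mathlib

/-!
# Kernel-checkable tables for permutation groups of degree 11

`Perm (Fin 11)` elements are packed in base 16.  A depth-first enumeration of all elements with
`z ^ 2 = 1` or `z ^ 3 = 1` fixing an initial segment is checked against a table of hints: each hint
is a word in the known generators and `z`, which either gives a three-cycle or a named target.
-/

set_option autoImplicit false

namespace Cfsg.Agent.Lib.Perm.Deg11

open Equiv Equiv.Perm

abbrev P := Equiv.Perm (Fin 11)

/-- the eleven-cycle `x ↦ x + 1` -/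
def A : P := finRotate 11

/-- multiplication by three -/
def B : P where
  toFun x := ⟨3 * x.val % 11, Nat.mod_lt _ (by norm_num)⟩
  invFun x := ⟨4 * x.val % 11, Nat.mod_lt _ (by norm_num)⟩
  left_inv := by decide
  right_inv := by decide

theorem A_val (x : Fin 11) : (A x).val = (x.val + 1) % 11 := by
  revert x; decide

theorem B_val (x : Fin 11) : (B x).val = 3 * x.val % 11 := rfl

theorem A_pow_val (i : ℕ) (x : Fin 11) : ((A ^ i) x).val = (x.val + i) % 11 := by
  induction i with
  | zero =>
    have := x.2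
    simp [Nat.mod_eq_of_lt this]
  | succ i ih =>
    rw [pow_succ', Equiv.Perm.mul_apply, A_val, ih]
    omega

/-! ### packing -/

def ev (t x : ℕ) : ℕ := t / 16 ^ x % 16

def pack (f : ℕ → ℕ) : ℕ :=
  f 0 + 16 * (f 1 + 16 * (f 2 + 16 * (f 3 + 16 * (f 4 + 16 * (f 5 + 16 * (f 6 + 16 * (f 7 + 16 *
    (f 8 + 16 * (f 9 + 16 * f 10)))))))))

theorem ev_pack (f : ℕ → ℕ) (hf : ∀ x, x < 11 → f x < 16) (x : ℕ) (hx : x < 11) :
    ev (pack f) x = f x := by
  have h0 := hf 0 (by norm_num)
  have h1 := hf 1 (by norm_num)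
  have h2 := hf 2 (by norm_num)
  have h3 := hf 3 (by norm_num)
  have h4 := hf 4 (by norm_num)
  have h5 := hf 5 (by norm_num)
  have h6 := hf 6 (by norm_num)
  have h7 := hf 7 (by norm_num)
  have h8 := hf 8 (by norm_num)
  have h9 := hf 9 (by norm_num)
  have h10 := hf 10 (by norm_num)
  unfold ev pack
  interval_cases x <;> omega

theorem pack_congr (f g : ℕ → ℕ) (h : ∀ x, x < 11 → f x = g x) : pack f = pack g := by
  unfold pack
  rw [h 0 (by norm_num), h 1 (by norm_num), h 2 (by norm_num), h 3 (by norm_num),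
    h 4 (by norm_num), h 5 (by norm_num), h 6 (by norm_num), h 7 (by norm_num),
    h 8 (by norm_num), h 9 (by norm_num), h 10 (by norm_num)]

def vl (g : P) (x : ℕ) : ℕ := if h : x < 11 then (g ⟨x, h⟩).val else 0

theorem vl_fin (g : P) (x : Fin 11) : vl g x.val = (g x).val := by
  simp [vl]

theorem vl_lt (g : P) (x : ℕ) : vl g x < 11 := by
  unfold vl
  split
  · exact (g _).2
  · norm_num

def enc (g : P) : ℕ := pack (vl g)

theorem ev_enc (g : P) (x : Fin 11) : ev (enc g) x.val = (g x).val := by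
  unfold enc
  rw [ev_pack (vl g) (fun x _ => (vl_lt g x).trans (by norm_num)) x.val x.2, vl_fin]

theorem enc_inj {g h : P} (e : enc g = enc h) : g = h := by
  refine Equiv.ext fun x => Fin.ext ?_
  rw [← ev_enc g x, ← ev_enc h x, e]

theorem nbeq_t {a b : ℕ} (h : a = b) : Nat.beq a b = true := by
  subst h
  exact Nat.beq_refl a

theorem nbeq_f {a b : ℕ} (h : a ≠ b) : Nat.beq a b = false := by
  rw [Bool.eq_false_iff]
  intro e
  exact h (Nat.eq_of_beq_eq_true e)

/-! ### words -/

def stepL (u t l x : ℕ) : ℕ :=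
  bif Nat.ble l 10 then (x + l) % 11
  else bif Nat.beq l 11 then (3 * x) % 11
  else bif Nat.beq l 12 then ev t x
  else ev u x

def evW : ℕ → ℕ → ℕ → ℕ → ℕ → ℕ
  | 0, _, _, _, x => x
  | n + 1, u, t, h, x =>
    bif Nat.beq h 0 then x else evW n u t (h / 16) (stepL u t (h % 16) x)

def lp (y z : P) (l : ℕ) : P :=
  if l ≤ 10 then A ^ l else if l = 11 then B else if l = 12 then z else y

def wP : ℕ → P → P → ℕ → P
  | 0, _, _, _ => 1
  | n + 1, y, z, h => if h = 0 then 1 else wP n y z (h / 16) * lp y z (h % 16)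

theorem stepL_spec (y z : P) (l : ℕ) (x : Fin 11) :
    stepL (enc y) (enc z) l x.val = (lp y z l x).val := by
  unfold stepL lp
  by_cases h1 : l ≤ 10
  · have : Nat.ble l 10 = true := Nat.ble_eq.mpr h1
    simp only [this, cond_true, if_pos h1, A_pow_val]
  · have h1' : Nat.ble l 10 = false := by
      rw [Bool.eq_false_iff]; intro h; exact h1 (Nat.ble_eq.mp h)
    simp only [h1', cond_false, if_neg h1]
    by_cases h2 : l = 11
    · subst h2
      have b : Nat.beq 11 11 = true := rfl
      simp only [b, cond_true, if_true, B_val]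
    · have h2' : Nat.beq l 11 = false := by
        rw [Bool.eq_false_iff]; intro h; exact h2 (Nat.eq_of_beq_eq_true h)
      simp only [h2', cond_false, if_neg h2]
      by_cases h3 : l = 12
      · subst h3
        have b : Nat.beq 12 12 = true := rfl
        simp only [b, cond_true, if_true, ev_enc]
      · have h3' : Nat.beq l 12 = false := by
          rw [Bool.eq_false_iff]; intro h; exact h3 (Nat.eq_of_beq_eq_true h)
        simp only [h3', cond_false, if_neg h3, ev_enc]

theorem evW_spec (y z : P) (n h : ℕ) (x : Fin 11) :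
    evW n (enc y) (enc z) h x.val = (wP n y z h x).val := by
  induction n generalizing h x with
  | zero => simp [evW, wP]
  | succ n ih =>
    unfold evW wP
    by_cases h0 : h = 0
    · subst h0
      simp
    · have h0' : Nat.beq h 0 = false := by
        rw [Bool.eq_false_iff]; intro e; exact h0 (Nat.eq_of_beq_eq_true e)
      simp only [h0', cond_false, if_neg h0, Equiv.Perm.mul_apply, stepL_spec]
      exact ih _ _

theorem lp_mem {H : Subgroup P} (hA : A ∈ H) (hB : B ∈ H) {y z : P} (hy : y ∈ H) (hz : z ∈ H)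
    (l : ℕ) : lp y z l ∈ H := by
  unfold lp
  split_ifs
  · exact H.pow_mem hA l
  · exact hB
  · exact hz
  · exact hy

theorem wP_mem {H : Subgroup P} (hA : A ∈ H) (hB : B ∈ H) {y z : P} (hy : y ∈ H) (hz : z ∈ H)
    (n h : ℕ) : wP n y z h ∈ H := by
  induction n generalizing h with
  | zero => exact H.one_mem
  | succ n ih =>
    unfold wP
    split_ifs
    · exact H.one_mem
    · exact H.mul_mem (ih _) (lp_mem hA hB hy hz _)

/-! ### moved points -/

def cnt : ℕ → (ℕ → ℕ) → ℕ
  | 0, _ => 0
  | n + 1, f => (bif Nat.beq (f n) n then 0 else 1) + cnt n f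

theorem cnt_eq_sum (f : ℕ → ℕ) (n : ℕ) :
    cnt n f = ∑ i ∈ Finset.range n, if f i = i then 0 else 1 := by
  induction n with
  | zero => rfl
  | succ n ih =>
    rw [Finset.sum_range_succ, cnt, ih, add_comm]
    congr 1
    by_cases h : f n = n
    · simp [h]
    · have h' : Nat.beq (f n) n = false := by
        rw [Bool.eq_false_iff]; intro e; exact h (Nat.eq_of_beq_eq_true e)
      simp [h', h]

theorem support_card_eq_cnt (r : P) (f : ℕ → ℕ) (hf : ∀ x : Fin 11, f x.val = (r x).val) :
    r.support.card = cnt 11 f := by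
  rw [cnt_eq_sum, ← Fin.sum_univ_eq_sum_range (fun i => if f i = i then 0 else 1) 11]
  have : r.support = Finset.univ.filter (fun x : Fin 11 => r x ≠ x) := by
    ext x; simp
  rw [this, Finset.card_filter]
  refine Finset.sum_congr rfl fun x _ => ?_
  rw [hf x]
  by_cases h : r x = x
  · simp [h]
  · have h' : (r x).val ≠ x.val := fun e => h (Fin.ext e)
    simp [h, h']

theorem iter_spec (r : P) (f : ℕ → ℕ) (hf : ∀ x : Fin 11, f x.val = (r x).val) (k : ℕ) (x : Fin 11) :
    f^[k] x.val = ((r ^ k) x).val := by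
  induction k with
  | zero => simp
  | succ k ih =>
    rw [Function.iterate_succ_apply', ih, pow_succ', Equiv.Perm.mul_apply, hf]

/-! ### hints -/

/-- fuel for the words -/
abbrev wf : ℕ := 40

def packW (u t h : ℕ) : ℕ := pack (fun x => evW wf u t h x)

theorem packW_spec (y z : P) (h : ℕ) : packW (enc y) (enc z) h = enc (wP wf y z h) := by
  show pack _ = pack _
  apply pack_congr
  intro x hx
  exact (evW_spec y z wf h ⟨x, hx⟩).trans (vl_fin _ ⟨x, hx⟩).symm

def memL (t : ℕ) : List ℕ → Bool
  | [] => false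
  | a :: l => bif Nat.beq t a then true else memL t l

theorem memL_spec (t : ℕ) (l : List ℕ) (h : memL t l = true) : t ∈ l := by
  induction l with
  | nil => simp [memL] at h
  | cons a l ih =>
    unfold memL at h
    by_cases e : t = a
    · subst e; simp
    · have e' : Nat.beq t a = false := by
        rw [Bool.eq_false_iff]; intro f; exact e (Nat.eq_of_beq_eq_true f)
      rw [e'] at h
      exact List.mem_cons_of_mem _ (ih h)

def hintOKAux (tg : List ℕ) (tw e : ℕ) : Bool :=
  bif Nat.beq e 0 then memL tw tg else Nat.beq (cnt 11 (fun x => (ev tw)^[e] x)) 3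

def hintOK (tg : List ℕ) (u t v : ℕ) : Bool :=
  hintOKAux tg (packW u t (v / 64)) (v % 64)

theorem hintOK_spec {H : Subgroup P} (hA : A ∈ H) (hB : B ∈ H) {y z : P} (hy : y ∈ H) (hz : z ∈ H)
    (tg : List ℕ) (v : ℕ) (h : hintOK tg (enc y) (enc z) v = true) :
    (∃ w ∈ H, w.IsThreeCycle) ∨ (∃ w ∈ H, enc w ∈ tg) := by
  unfold hintOK hintOKAux at h
  rw [packW_spec] at h
  have hw := wP_mem hA hB hy hz wf (v / 64)
  set w := wP wf y z (v / 64) with hwdef
  by_cases e : v % 64 = 0
  · rw [e] at h
    have b : Nat.beq 0 0 = true := rfl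
    simp only [b, cond_true] at h
    exact Or.inr ⟨w, hw, memL_spec _ _ h⟩
  · have e' : Nat.beq (v % 64) 0 = false := by
      rw [Bool.eq_false_iff]; intro f; exact e (Nat.eq_of_beq_eq_true f)
    rw [e'] at h
    simp only [cond_false] at h
    have h3 := Nat.eq_of_beq_eq_true h
    left
    refine ⟨w ^ (v % 64), H.pow_mem hw _, ?_⟩
    rw [← card_support_eq_three_iff]
    rw [support_card_eq_cnt (w ^ (v % 64)) (fun x => (ev (enc w))^[v % 64] x)]
    · exact h3
    · intro x
      exact iter_spec w (ev (enc w)) (fun x => ev_enc w x) _ x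

/-! ### the table -/

inductive BT where
  | nil : BT
  | node (l : BT) (k v : ℕ) (r : BT) : BT

def BT.find : BT → ℕ → ℕ
  | .nil, _ => 0
  | .node l k v r, t =>
    bif Nat.blt t k then l.find t else bif Nat.beq t k then v else r.find t

/-! ### enumeration -/

def allBelow : ℕ → (ℕ → Bool) → Bool
  | 0, _ => true
  | n + 1, p => p n && allBelow n p

theorem allBelow_spec (n : ℕ) (p : ℕ → Bool) (h : allBelow n p = true) (x : ℕ) (hx : x < n) :
    p x = true := by
  induction n with
  | zero => omega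
  | succ n ih =>
    unfold allBelow at h
    rw [Bool.and_eq_true] at h
    rcases Nat.lt_succ_iff_lt_or_eq.mp hx with h1 | h1
    · exact ih h.2 h1
    · rw [h1]; exact h.1

theorem allBelow_intro (n : ℕ) (p : ℕ → Bool) (h : ∀ x, x < n → p x = true) :
    allBelow n p = true := by
  induction n with
  | zero => rfl
  | succ n ih =>
    unfold allBelow
    rw [Bool.and_eq_true]
    exact ⟨h n (Nat.lt_succ_self n), ih fun x hx => h x (hx.trans (Nat.lt_succ_self n))⟩

def chk (ok : (ℕ → ℕ) → ℕ → ℕ → Bool) (leaf : ℕ → Bool) : ℕ → ℕ → (ℕ → ℕ) → Bool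
  | 0, _, f => leaf (pack f)
  | k + 1, i, f =>
    allBelow 11 fun v =>
      !ok f i v || chk ok leaf k (i + 1) (fun x => bif Nat.beq x i then v else f x)

theorem chk_zero (ok : (ℕ → ℕ) → ℕ → ℕ → Bool) (leaf : ℕ → Bool) (i : ℕ) (f : ℕ → ℕ) :
    chk ok leaf 0 i f = leaf (pack f) := rfl

theorem chk_succ (ok : (ℕ → ℕ) → ℕ → ℕ → Bool) (leaf : ℕ → Bool) (k i : ℕ) (f : ℕ → ℕ) :
    chk ok leaf (k + 1) i f = allBelow 11 fun v =>
      !ok f i v || chk ok leaf k (i + 1) (fun x => bif Nat.beq x i then v else f x) := rfl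

theorem chk_sound (ok : (ℕ → ℕ) → ℕ → ℕ → Bool) (leaf : ℕ → Bool) (z : P)
    (hok : ∀ f i, i < 11 → (∀ j, j < i → f j = vl z j) → ok f i (vl z i) = true) :
    ∀ k i f, i + k = 11 → (∀ j, j < i → f j = vl z j) → chk ok leaf k i f = true →
      leaf (enc z) = true := by
  intro k
  induction k with
  | zero =>
    intro i f hi hf h
    rw [chk_zero] at h
    have h3 : pack f = enc z := pack_congr f (vl z) fun x hx => hf x (by omega)
    exact h3 ▸ h
  | succ k ih =>
    intro i f hi hf h
    rw [chk_succ] at h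
    have hi' : i < 11 := by omega
    have h1 := allBelow_spec 11 (fun v => !ok f i v ||
      chk ok leaf k (i + 1) (fun x => bif Nat.beq x i then v else f x)) h (vl z i) (vl_lt z i)
    simp only [Bool.or_eq_true, Bool.not_eq_true'] at h1
    rcases h1 with h1 | h1
    · rw [hok f i hi' hf] at h1
      exact absurd h1 (by simp)
    · refine ih (i + 1) _ (by omega) ?_ h1
      intro j hj
      by_cases e : j = i
      · subst e
        simp
      · have e' : Nat.beq j i = false := by
          rw [Bool.eq_false_iff]; intro f; exact e (Nat.eq_of_beq_eq_true f)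
        simp only [e', cond_false]
        exact hf j (by omega)

/-- a piece of the enumeration: the values at `i` and `i + 1` are prescribed -/
def pc (ok : (ℕ → ℕ) → ℕ → ℕ → Bool) (leaf : ℕ → Bool) (k i : ℕ) (f : ℕ → ℕ) (v w : ℕ) : Bool :=
  !ok f i v || !ok (fun x => bif Nat.beq x i then v else f x) (i + 1) w ||
    chk ok leaf k (i + 1 + 1) (fun x => bif Nat.beq x (i + 1) then w else
      (fun x => bif Nat.beq x i then v else f x) x)

theorem chk_split (ok : (ℕ → ℕ) → ℕ → ℕ → Bool) (leaf : ℕ → Bool) (k i : ℕ) (f : ℕ → ℕ)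
    (h : ∀ v, v < 11 → ∀ w, w < 11 → pc ok leaf k i f v w = true) :
    chk ok leaf (k + 1 + 1) i f = true := by
  rw [chk_succ]
  apply allBelow_intro
  intro v hv
  rw [Bool.or_eq_true]
  by_cases h1 : ok f i v = true
  · right
    rw [chk_succ]
    apply allBelow_intro
    intro w hw
    have h2 := h v hv w hw
    unfold pc at h2
    rw [h1] at h2
    simpa using h2
  · left
    simpa using h1

def okAt2 (f : ℕ → ℕ) (i v j : ℕ) : Bool :=
  !(Nat.beq (f j) v) && (Nat.beq (f j) i == Nat.beq v j)

def okAt3 (f : ℕ → ℕ) (i v j : ℕ) : Bool :=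
  !(Nat.beq (f j) v) &&
    (!(Nat.beq (f j) i) || (!(Nat.beq v j) && (!(Nat.blt v i) || Nat.beq (f v) j))) &&
    (!(Nat.beq v j) || (!(Nat.beq (f j) i) && (!(Nat.blt (f j) i) || Nat.beq (f (f j)) i)))

def ok2 (f : ℕ → ℕ) (i v : ℕ) : Bool := allBelow i (okAt2 f i v)

def ok3 (f : ℕ → ℕ) (i v : ℕ) : Bool := allBelow i (okAt3 f i v)

theorem vl_inj (z : P) {a b : ℕ} (ha : a < 11) (hb : b < 11) (e : vl z a = vl z b) : a = b := by
  have h1 := vl_fin z ⟨a, ha⟩
  have h2 := vl_fin z ⟨b, hb⟩
  simp only at h1 h2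
  rw [h1, h2] at e
  have := z.injective (Fin.ext e)
  exact congrArg Fin.val this

theorem vl_vl_2 (z : P) (hz : z ^ 2 = 1) (a : ℕ) (ha : a < 11) : vl z (vl z a) = a := by
  have h1 := vl_fin z ⟨a, ha⟩
  simp only at h1
  rw [h1]
  have h2 := vl_fin z (z ⟨a, ha⟩)
  rw [h2]
  have : z (z ⟨a, ha⟩) = ⟨a, ha⟩ := by
    have := congrArg (fun g : P => g ⟨a, ha⟩) hz
    simpa [pow_two] using this
  rw [this]

theorem vl_vl_3 (z : P) (hz : z ^ 3 = 1) (a : ℕ) (ha : a < 11) : vl z (vl z (vl z a)) = a := by
  have h1 := vl_fin z ⟨a, ha⟩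
  simp only at h1
  rw [h1]
  have h2 := vl_fin z (z ⟨a, ha⟩)
  rw [h2]
  have h3 := vl_fin z (z (z ⟨a, ha⟩))
  rw [h3]
  have : z (z (z ⟨a, ha⟩)) = ⟨a, ha⟩ := by
    have := congrArg (fun g : P => g ⟨a, ha⟩) hz
    simpa [pow_succ, Equiv.Perm.mul_apply] using this
  rw [this]

theorem ok2_sound (z : P) (hz : z ^ 2 = 1) (f : ℕ → ℕ) (i : ℕ) (hi : i < 11)
    (hf : ∀ j, j < i → f j = vl z j) : ok2 f i (vl z i) = true := by
  apply allBelow_intro
  intro j hj
  unfold okAt2
  rw [hf j hj]
  have hj' : j < 11 := by omega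
  have a1 : vl z j ≠ vl z i := fun e => by
    have := vl_inj z hj' hi e
    omega
  have a2 : (vl z j = i) ↔ (vl z i = j) := by
    constructor
    · intro e
      have := vl_vl_2 z hz j hj'
      rw [e] at this
      exact this
    · intro e
      have := vl_vl_2 z hz i hi
      rw [e] at this
      exact this
  by_cases h : vl z j = i
  · have h' := a2.mp h
    rw [nbeq_t h, nbeq_t h', nbeq_f a1]
    rfl
  · have h' : ¬ vl z i = j := fun e => h (a2.mpr e)
    rw [nbeq_f h, nbeq_f h', nbeq_f a1]
    rfl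

theorem ok3_sound (z : P) (hz : z ^ 3 = 1) (f : ℕ → ℕ) (i : ℕ) (hi : i < 11)
    (hf : ∀ j, j < i → f j = vl z j) : ok3 f i (vl z i) = true := by
  apply allBelow_intro
  intro j hj
  unfold okAt3
  have hj' : j < 11 := by omega
  have a1 : vl z j ≠ vl z i := fun e => by
    have := vl_inj z hj' hi e
    omega
  have hvv := fun a ha => vl_vl_3 z hz a ha
  have hlt := fun a => vl_lt z a
  simp only [Bool.and_eq_true, Bool.or_eq_true, Bool.not_eq_true', Nat.beq_eq_true_eq]
  rw [hf j hj]
  refine ⟨⟨?_, ?_⟩, ?_⟩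
  · rw [Bool.eq_false_iff]; intro e; exact a1 (Nat.eq_of_beq_eq_true e)
  · by_cases h : vl z j = i
    · right
      have hij : vl z i ≠ j := fun e => by
        have := hvv i hi
        rw [e, h, e] at this
        omega
      have hv : vl z (vl z i) = j := by
        have := hvv j hj'
        rw [h] at this
        exact this
      refine ⟨?_, ?_⟩
      · rw [Bool.eq_false_iff]; intro e; exact hij (Nat.eq_of_beq_eq_true e)
      · by_cases h2 : vl z i < i
        · right
          rw [hf _ h2]
          exact nbeq_t hv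
        · left
          rw [Bool.eq_false_iff]; intro e; exact h2 (Nat.le_of_ble_eq_true e)
    · left
      rw [Bool.eq_false_iff]; intro e; exact h (Nat.eq_of_beq_eq_true e)
  · by_cases h : vl z i = j
    · right
      have hji : vl z j ≠ i := fun e => by
        have := hvv i hi
        rw [h, e, h] at this
        omega
      have hv : vl z (vl z j) = i := by
        have := hvv i hi
        rw [h] at this
        exact this
      refine ⟨?_, ?_⟩
      · rw [Bool.eq_false_iff]; intro e; exact hji (Nat.eq_of_beq_eq_true e)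
      · by_cases h2 : vl z j < i
        · right
          rw [hf _ h2]
          exact nbeq_t hv
        · left
          rw [Bool.eq_false_iff]; intro e; exact h2 (Nat.le_of_ble_eq_true e)
    · left
      rw [Bool.eq_false_iff]; intro e; exact h (Nat.eq_of_beq_eq_true e)

/-! ### leaves -/

def pow2Id (t : ℕ) : Bool := allBelow 11 fun x => Nat.beq (ev t (ev t x)) x

def pow3Id (t : ℕ) : Bool := allBelow 11 fun x => Nat.beq (ev t (ev t (ev t x))) x

theorem pow2Id_enc (z : P) : pow2Id (enc z) = true ↔ z ^ 2 = 1 := by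
  unfold pow2Id
  constructor
  · intro h
    refine Equiv.ext fun x => Fin.ext ?_
    have h1 := allBelow_spec _ _ h x.val x.2
    have h2 := Nat.eq_of_beq_eq_true h1
    rw [ev_enc, ev_enc] at h2
    simpa [pow_two] using h2
  · intro h
    apply allBelow_intro
    intro x hx
    apply nbeq_t
    have e1 := ev_enc z ⟨x, hx⟩
    simp only at e1
    rw [e1, ev_enc]
    have := congrArg (fun g : P => (g ⟨x, hx⟩).val) h
    simpa [pow_two] using this

theorem pow3Id_enc (z : P) : pow3Id (enc z) = true ↔ z ^ 3 = 1 := by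
  unfold pow3Id
  constructor
  · intro h
    refine Equiv.ext fun x => Fin.ext ?_
    have h1 := allBelow_spec _ _ h x.val x.2
    have h2 := Nat.eq_of_beq_eq_true h1
    rw [ev_enc, ev_enc, ev_enc] at h2
    simpa [pow_succ, Equiv.Perm.mul_apply] using h2
  · intro h
    apply allBelow_intro
    intro x hx
    apply nbeq_t
    have e1 := ev_enc z ⟨x, hx⟩
    simp only at e1
    rw [e1, ev_enc, ev_enc]
    have := congrArg (fun g : P => (g ⟨x, hx⟩).val) h
    simpa [pow_succ, Equiv.Perm.mul_apply] using this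

/-- packed identity -/
def idc : ℕ := 0x_A987654321_0

theorem enc_one : enc 1 = idc := by
  decide +kernel

theorem enc_one' : enc 1 = 0xA9876543210 := by
  decide +kernel

def leaf2 (tg : List ℕ) (T : BT) (u t : ℕ) : Bool :=
  !pow2Id t || Nat.beq t idc || hintOK tg u t (T.find t)

def leaf3 (tg : List ℕ) (T : BT) (u t : ℕ) : Bool :=
  !pow3Id t || Nat.beq t idc || hintOK tg u t (T.find t)

/-- the enumeration start: points below `s` are fixed -/
theorem chk2_main (tg : List ℕ) (T : BT) (s : ℕ) (hs : s ≤ 11) (y : P)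
    (hchk : chk ok2 (leaf2 tg T (enc y)) (11 - s) s id = true)
    {H : Subgroup P} (hA : A ∈ H) (hB : B ∈ H) (hy : y ∈ H) {z : P} (hz : z ∈ H)
    (h2 : z ^ 2 = 1) (h1 : z ≠ 1) (hfix : ∀ j, j < s → vl z j = j) :
    (∃ w ∈ H, w.IsThreeCycle) ∨ (∃ w ∈ H, enc w ∈ tg) := by
  have := chk_sound ok2 (leaf2 tg T (enc y)) z (fun f i hi hf => ok2_sound z h2 f i hi hf)
    (11 - s) s id (by omega) (fun j hj => (hfix j hj).symm) hchk
  unfold leaf2 at this
  have b1 : pow2Id (enc z) = true := (pow2Id_enc z).mpr h2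
  have b2 : Nat.beq (enc z) idc = false := by
    rw [Bool.eq_false_iff]; intro e
    apply h1
    apply enc_inj
    rw [enc_one]
    exact Nat.eq_of_beq_eq_true e
  rw [b1, b2] at this
  simp only [Bool.not_true, Bool.false_or] at this
  exact hintOK_spec hA hB hy hz tg _ this

theorem chk3_main (tg : List ℕ) (T : BT) (s : ℕ) (hs : s ≤ 11) (y : P)
    (hchk : chk ok3 (leaf3 tg T (enc y)) (11 - s) s id = true)
    {H : Subgroup P} (hA : A ∈ H) (hB : B ∈ H) (hy : y ∈ H) {z : P} (hz : z ∈ H)
    (h2 : z ^ 3 = 1) (h1 : z ≠ 1) (hfix : ∀ j, j < s → vl z j = j) :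
    (∃ w ∈ H, w.IsThreeCycle) ∨ (∃ w ∈ H, enc w ∈ tg) := by
  have := chk_sound ok3 (leaf3 tg T (enc y)) z (fun f i hi hf => ok3_sound z h2 f i hi hf)
    (11 - s) s id (by omega) (fun j hj => (hfix j hj).symm) hchk
  unfold leaf3 at this
  have b1 : pow3Id (enc z) = true := (pow3Id_enc z).mpr h2
  have b2 : Nat.beq (enc z) idc = false := by
    rw [Bool.eq_false_iff]; intro e
    apply h1
    apply enc_inj
    rw [enc_one]
    exact Nat.eq_of_beq_eq_true e
  rw [b1, b2] at this
  simp only [Bool.not_true, Bool.false_or] at this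
  exact hintOK_spec hA hB hy hz tg _ this

end Cfsg.Agent.Lib.Perm.Deg11
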