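import Mathlib
import Cfsg.Agent.Lib.Perm.Basic
import Cfsg.Agent.Lib.Perm.Deg11.Core

/-!
# A non-solvable subgroup of `Perm (Fin 11)` containing `x ↦ x + 1` contains `x ↦ 3 x`
-/

set_option autoImplicit false
set_option linter.style.haveILetI false

namespace Cfsg.Agent.Lib.Perm.Deg11

open Equiv Equiv.Perm MulAction Cfsg.Agent.Lib.Perm.Basic

theorem A_pow_zero_apply (i : ℕ) : ((A ^ i) 0).val = i % 11 := by
  rw [A_pow_val]
  simp

theorem orderOf_A : orderOf A = 11 := by
  have : (finRotate 11).cycleType = {11} := cycleType_finRotate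
  have h2 : orderOf (finRotate 11) = 11 := by
    rw [← Equiv.Perm.lcm_cycleType, this]
    rfl
  exact h2

theorem sign_A : Equiv.Perm.sign A = 1 := by
  have := sign_finRotate 11
  show Equiv.Perm.sign (finRotate 11) = 1
  rw [this]
  rfl

theorem A_mem_alt : A ∈ alternatingGroup (Fin 11) :=
  Equiv.Perm.mem_alternatingGroup.mpr sign_A

/-- transitivity from the eleven-cycle -/
theorem pretrans_of_A (H : Subgroup P) (hA : A ∈ H) : IsPretransitive H (Fin 11) := by
  apply isPretransitive_subgroup_of
  intro x y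
  refine ⟨A ^ (y.val + (11 - x.val)), H.pow_mem hA _, ?_⟩
  apply Fin.ext
  rw [Equiv.Perm.smul_def, A_pow_val]
  have := x.2
  have := y.2
  omega

theorem preprim_of_A (H : Subgroup P) (hA : A ∈ H) : IsPreprimitive H (Fin 11) := by
  haveI := pretrans_of_A H hA
  exact IsPreprimitive.of_prime_card (by simp; norm_num)

theorem affine_of_conj (t : P) (k : ℕ) (h : t * A * t⁻¹ = A ^ k) (x : Fin 11) :
    (t x).val = ((t 0).val + k * x.val) % 11 := by
  have step : ∀ y : Fin 11, (t (A y)).val = ((t y).val + k) % 11 := by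
    intro y
    have h1 : t (A y) = (A ^ k) (t y) := by
      rw [← h]
      simp [Equiv.Perm.mul_apply]
    rw [h1, A_pow_val]
  have main : ∀ n (hn : n < 11), (t ⟨n, hn⟩).val = ((t 0).val + k * n) % 11 := by
    intro n
    induction n with
    | zero =>
      intro hn
      have := (t 0).2
      simp only [mul_zero, add_zero]
      rw [Nat.mod_eq_of_lt this]
      rfl
    | succ n ih =>
      intro hn
      have h2 : (⟨n + 1, hn⟩ : Fin 11) = A ⟨n, by omega⟩ := by
        apply Fin.ext
        rw [A_val]
        simp only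
        omega
      rw [h2, step, ih (by omega)]
      rw [Nat.add_mod, Nat.mod_mod, ← Nat.add_mod, add_assoc, mul_add, mul_one]
  exact main x.val x.2

/-- the order of a group containing the eleven cycle is divisible by exactly one eleven -/
theorem factor_eleven (X : Subgroup P) (hA : A ∈ X) : (Nat.card X).factorization 11 = 1 := by
  have h11 : Nat.Prime 11 := by norm_num
  have hd : Nat.card X ∣ Nat.factorial 11 := by
    have := Subgroup.card_subgroup_dvd_card X
    rwa [Nat.card_eq_fintype_card (α := P), Fintype.card_perm, Fintype.card_fin] at this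
  have h1 : 11 ∣ Nat.card X := by
    have h2 := Subgroup.card_dvd_of_le ((Subgroup.zpowers_le (H := X)).mpr hA)
    rw [Nat.card_zpowers, orderOf_A] at h2
    exact h2
  obtain ⟨d, hdd⟩ := h1
  have hd0 : d ≠ 0 := by
    rintro rfl
    rw [mul_zero] at hdd
    exact absurd hdd Nat.card_pos.ne'
  have hnd : ¬ 11 ∣ d := by
    rintro ⟨e, rfl⟩
    have h3 : 121 ∣ Nat.factorial 11 := by
      refine Dvd.dvd.trans ⟨e, ?_⟩ hd
      rw [hdd]
      ring
    norm_num [Nat.factorial] at h3
  rw [hdd, Nat.factorization_mul (by norm_num) hd0, Finsupp.add_apply, h11.factorization_self,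
    Nat.factorization_eq_zero_of_not_dvd hnd]

theorem solvable_of_card_squarefree {K : Type*} [Group K] [Finite K] (h : Squarefree (Nat.card K)) :
    Group.IsSolvable K := by
  haveI : IsZGroup K := IsZGroup.of_squarefree h
  infer_instance

/-- Burnside transfer for the eleven-cycle. -/
theorem exists_conj (X : Subgroup P) (hA : A ∈ X) (hns : ¬ Group.IsSolvable X) :
    ∃ t ∈ X, ∃ k : ℕ, t * A * t⁻¹ = A ^ k ∧ ¬ Commute t A := by
  classical
  haveI : Fact (Nat.Prime 11) := ⟨by norm_num⟩
  let a : X := ⟨A, hA⟩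
  let Z : Subgroup X := Subgroup.zpowers a
  have hoa : orderOf a = 11 := by
    rw [← Subgroup.orderOf_coe, orderOf_A]
  have hZ : Nat.card Z = 11 := by
    rw [Nat.card_zpowers, hoa]
  have hf := factor_eleven X hA
  let S : Sylow 11 X := Sylow.ofCard Z (by rw [hZ, hf, pow_one])
  have hSZ : (S : Subgroup X) = Z := rfl
  by_cases hnorm : Subgroup.normalizer ((S : Subgroup X) : Set X) ≤
      Subgroup.centralizer ((S : Subgroup X) : Set X)
  · exfalso
    apply hns
    have hc := MonoidHom.ker_transferSylow_isComplement' S hnorm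
    let K : Subgroup X := (MonoidHom.transferSylow S hnorm).ker
    haveI hKn : K.Normal := MonoidHom.normal_ker _
    have hcard : Nat.card K * 11 = Nat.card X := by
      have h1 := hc.card_mul_card
      rwa [show Nat.card (S : Subgroup X) = 11 from hZ] at h1
    have hKbot : K = ⊥ := by
      by_contra hne
      haveI := preprim_of_A X hA
      haveI htr : IsPretransitive K (Fin 11) := isPretransitive_of_normal_of_ne_bot K hne
      have h1 : Nat.card (orbit K (0 : Fin 11)) * Nat.card (stabilizer K (0 : Fin 11)) =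
          Nat.card K := by
        rw [← Nat.card_prod]
        exact Nat.card_congr (orbitProdStabilizerEquivGroup K (0 : Fin 11))
      rw [orbit_eq_univ, Nat.card_coe_set_eq, Set.ncard_univ, Nat.card_eq_fintype_card,
        Fintype.card_fin] at h1
      have h4 : 11 ^ 2 ∣ Nat.card X := by
        rw [← hcard, ← h1]
        exact ⟨Nat.card (stabilizer K (0 : Fin 11)), by ring⟩
      have h5 := (Nat.Prime.pow_dvd_iff_le_factorization (by norm_num) Nat.card_pos.ne').mp h4
      omega
    have hX : Nat.card X = 11 := by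
      rw [← hcard, hKbot, Subgroup.card_bot, one_mul]
    apply solvable_of_card_squarefree
    rw [hX]
    exact (by norm_num : Nat.Prime 11).prime.irreducible.squarefree
  · obtain ⟨t, ht, htc⟩ := Set.not_subset.mp hnorm
    refine ⟨(t : P), t.2, ?_⟩
    have hcon : t * a * t⁻¹ ∈ Z := by
      have h3 := (Subgroup.mem_normalizer_iff.mp ht) a
      exact h3.mp (Subgroup.mem_zpowers a)
    obtain ⟨j, hj⟩ := Subgroup.mem_zpowers_iff.mp hcon
    have hnc : ¬ Commute t a := by
      intro hcomm
      apply htc
      rw [SetLike.mem_coe, Subgroup.mem_centralizer_iff]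
      intro h hh
      obtain ⟨l, rfl⟩ := Subgroup.mem_zpowers_iff.mp (hSZ ▸ hh)
      exact ((hcomm.symm.zpow_left l)).eq
    refine ⟨(j % 11).toNat, ?_, ?_⟩
    · have hj2 : (t : P) * A * (t : P)⁻¹ = A ^ j := (congrArg Subtype.val hj).symm
      rw [hj2, ← zpow_natCast, Int.toNat_of_nonneg (Int.emod_nonneg _ (by norm_num))]
      have := zpow_mod_orderOf A j
      rw [orderOf_A] at this
      exact this.symm
    · intro hcomm
      apply hnc
      exact Subtype.ext hcomm

/-- multiplication by ten -/
def Neg : P where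
  toFun x := ⟨10 * x.val % 11, Nat.mod_lt _ (by norm_num)⟩
  invFun x := ⟨10 * x.val % 11, Nat.mod_lt _ (by norm_num)⟩
  left_inv := by decide
  right_inv := by decide

theorem sign_Neg : Equiv.Perm.sign Neg = -1 := by
  decide +kernel

theorem pow_mult (g : P) (r : ℕ) (h : ∀ x : Fin 11, (g x).val = r * x.val % 11) (n : ℕ)
    (x : Fin 11) : ((g ^ n) x).val = r ^ n * x.val % 11 := by
  induction n with
  | zero =>
    have := x.2
    simp [Nat.mod_eq_of_lt this]
  | succ n ih =>
    rw [pow_succ', Equiv.Perm.mul_apply, h, ih, pow_succ']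
    rw [Nat.mul_mod, Nat.mod_mod, ← Nat.mul_mod, mul_assoc]

theorem eqB (g : P) (m : ℕ) (hm : m % 11 = 3) (h : ∀ x : Fin 11, (g x).val = m * x.val % 11) :
    g = B := by
  refine Equiv.ext fun x => Fin.ext ?_
  rw [h, B_val, Nat.mul_mod, hm]
  omega

theorem eqN (g : P) (m : ℕ) (hm : m % 11 = 10) (h : ∀ x : Fin 11, (g x).val = m * x.val % 11) :
    g = Neg := by
  refine Equiv.ext fun x => Fin.ext ?_
  rw [h]
  show _ = 10 * x.val % 11
  rw [Nat.mul_mod, hm]
  omega

theorem B_mem (H : Subgroup P) (hA : A ∈ H) (hns : ¬ Group.IsSolvable H) : B ∈ H := by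
  classical
  let X : Subgroup P := H ⊓ alternatingGroup (Fin 11)
  have hAX : A ∈ X := ⟨hA, A_mem_alt⟩
  have hnsX : ¬ Group.IsSolvable X := by
    intro hs
    apply hns
    let f : X →* H := Subgroup.inclusion inf_le_left
    let g : H →* ℤˣ := (Equiv.Perm.sign).comp H.subtype
    exact Group.isSolvable_of_ker_le_range f g (by
      intro h hh
      exact ⟨⟨h, h.2, hh⟩, rfl⟩)
  obtain ⟨t, htX, k, hk, hnc⟩ := exists_conj X hAX hnsX
  have hk' : t * A * t⁻¹ = A ^ (k % 11) := by
    rw [hk]
    have := pow_mod_orderOf A k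
    rw [orderOf_A] at this
    exact this.symm
  have hr : k % 11 < 11 := Nat.mod_lt _ (by norm_num)
  set r := k % 11 with hrdef
  have hr0 : r ≠ 0 := by
    intro e
    rw [e, pow_zero] at hk'
    have h1 : A = 1 := by
      have h2 : t * A = t := by
        have := congrArg (fun w => w * t) hk'
        simpa using this
      simpa using h2
    have h3 := orderOf_A
    rw [h1, orderOf_one] at h3
    omega
  have hr1 : r ≠ 1 := by
    intro e
    rw [e, pow_one] at hk'
    apply hnc
    show t * A = A * t
    have := congrArg (fun w => w * t) hk'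
    simpa using this
  -- the multiplication map
  let t' : P := A ^ (11 - (t 0).val) * t
  have ht'X : t' ∈ X := X.mul_mem (X.pow_mem hAX _) htX
  have ht' : ∀ x : Fin 11, (t' x).val = r * x.val % 11 := by
    intro x
    show ((A ^ (11 - (t 0).val)) (t x)).val = _
    rw [A_pow_val, affine_of_conj t r hk' x]
    have h0 := (t 0).2
    rw [Nat.mod_add_mod]
    have : (t 0).val + r * x.val + (11 - (t 0).val) = r * x.val + 11 := by omega
    rw [this]
    simp
  have hsign : ∀ n : ℕ, Equiv.Perm.sign (t' ^ n) = 1 := by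
    intro n
    have := (X.pow_mem ht'X n).2
    exact Equiv.Perm.mem_alternatingGroup.mp this
  have hneg : ∀ n m : ℕ, r ^ n = m → m % 11 = 10 → False := by
    intro n m h1 h2
    have h3 : t' ^ n = Neg := eqN _ m h2 (by
      intro x
      rw [pow_mult t' r ht', h1])
    have h4 := hsign n
    rw [h3, sign_Neg] at h4
    exact absurd h4 (by decide)
  have hpos : ∀ n m : ℕ, r ^ n = m → m % 11 = 3 → B ∈ H := by
    intro n m h1 h2
    have h3 : t' ^ n = B := eqB _ m h2 (by
      intro x
      rw [pow_mult t' r ht', h1])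
    rw [← h3]
    exact (X.pow_mem ht'X n).1
  interval_cases hv : r
  · exact absurd rfl hr0
  · exact absurd rfl hr1
  · exact (hneg 5 32 rfl rfl).elim
  · exact hpos 1 3 rfl rfl
  · exact hpos 4 256 rfl rfl
  · exact hpos 2 25 rfl rfl
  · exact (hneg 5 7776 rfl rfl).elim
  · exact (hneg 5 16807 rfl rfl).elim
  · exact (hneg 5 32768 rfl rfl).elim
  · exact hpos 3 729 rfl rfl
  · exact (hneg 1 10 rfl rfl).elim

end Cfsg.Agent.Lib.Perm.Deg11
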