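import Mathlib
import Cfsg.Agent.S0675
import Cfsg.Agent.S0713
import Cfsg.Agent.Lib.Perm.Deg11.Gen

/-!
# Degree eleven: group-theoretic steps around the tables
-/

set_option autoImplicit false
set_option linter.style.haveILetI false

namespace Cfsg.Agent.Lib.Perm.Deg11

open Equiv Equiv.Perm MulAction Cfsg.Agent.Lib.Perm.Basic

theorem no_three (H : Subgroup P) (hA : A ∈ H) (hnA : ¬ alternatingGroup (Fin 11) ≤ H) {w : P}
    (hw : w ∈ H) : ¬ w.IsThreeCycle := by
  intro h3
  apply hnA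
  haveI := preprim_of_A H hA
  exact Equiv.Perm.alternatingGroup_le_of_isPreprimitive_of_isThreeCycle_mem ‹_› h3 hw

theorem vl_pow_fix (g : P) (n j : ℕ) (hj : j < 11) (h : vl g j = j) : vl (g ^ n) j = j := by
  have h1 := vl_fin g ⟨j, hj⟩
  have h2 := vl_fin (g ^ n) ⟨j, hj⟩
  simp only at h1 h2
  rw [h2]
  have h3 : g ⟨j, hj⟩ = ⟨j, hj⟩ := Fin.ext (by rw [← h1, h])
  have h4 := Equiv.Perm.pow_apply_eq_self_of_apply_eq_self h3 n
  rw [h4]

/-- Reduction to elements of order two or three. -/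
theorem reduce_prime (H : Subgroup P) (hA : A ∈ H) (hnA : ¬ alternatingGroup (Fin 11) ≤ H) (s : ℕ)
    (hs : 2 ≤ s) (hs' : s ≤ 11) {g : P} (hg : g ∈ H) (h1 : g ≠ 1)
    (hfix : ∀ j, j < s → vl g j = j) :
    ∃ z ∈ H, z ≠ 1 ∧ (∀ j, j < s → vl z j = j) ∧ (z ^ 2 = 1 ∨ z ^ 3 = 1) := by
  classical
  have ho : orderOf g ≠ 1 := fun e => h1 (orderOf_eq_one_iff.mp e)
  have ho0 : orderOf g ≠ 0 := (orderOf_pos g).ne'
  obtain ⟨p, hp, hpd⟩ := Nat.exists_prime_and_dvd ho
  have hzo : orderOf (g ^ (orderOf g / p)) = p := orderOf_pow_orderOf_div ho0 hpd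
  set z := g ^ (orderOf g / p) with hz
  have hzH : z ∈ H := H.pow_mem hg _
  have hz1 : z ≠ 1 := by
    intro e
    rw [e, orderOf_one] at hzo
    exact hp.one_lt.ne hzo
  have hzfix : ∀ j, j < s → vl z j = j := fun j hj =>
    vl_pow_fix g _ j (by omega) (hfix j hj)
  refine ⟨z, hzH, hz1, hzfix, ?_⟩
  have hpz : Nat.Prime (orderOf z) := by rw [hzo]; exact hp
  obtain ⟨n, hn⟩ := Equiv.Perm.cycleType_prime_order hpz
  have hsum := Equiv.Perm.sum_cycleType z
  rw [hn, Multiset.sum_replicate, hzo, smul_eq_mul] at hsum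
  have hcard : z.support.card ≤ 9 := by
    have h0 : z 0 = 0 := by
      have := vl_fin z 0
      rw [show ((0 : Fin 11)).val = 0 from rfl, hzfix 0 (by omega)] at this
      exact Fin.ext this.symm
    have h1' : z 1 = 1 := by
      have := vl_fin z 1
      rw [show ((1 : Fin 11)).val = 1 from rfl, hzfix 1 (by omega)] at this
      exact Fin.ext this.symm
    have hsub : z.support ⊆ ((Finset.univ : Finset (Fin 11)).erase 0).erase 1 := by
      intro x hx
      rw [Equiv.Perm.mem_support] at hx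
      simp only [Finset.mem_erase, Finset.mem_univ, and_true]
      constructor
      · rintro rfl; exact hx h1'
      · rintro rfl; exact hx h0
    have := Finset.card_le_card hsub
    simpa using this
  have hple : p ≤ 9 := by
    have h6 : 1 * p ≤ (n + 1) * p := Nat.mul_le_mul_right p (by omega)
    omega
  have hcyc : ∀ q, q = p → (n + 1) * q ≤ 9 → 5 ≤ q → z.IsCycle ∧ z.support.card = p := by
    intro q hq h5 h6
    subst hq
    have hn1' : n = 0 := by
      by_contra hne
      have h7 : 2 ≤ n + 1 := by omega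
      have h8 : 2 * q ≤ (n + 1) * q := Nat.mul_le_mul_right q h7
      omega
    subst hn1'
    refine ⟨?_, ?_⟩
    · rw [← Equiv.Perm.card_cycleType_eq_one, hn]
      rfl
    · rw [← hsum, zero_add, one_mul]
  have hjord : ∀ q, q = p → (n + 1) * q ≤ 9 → 5 ≤ q → q + 3 ≤ 11 → False := by
    intro q hq h5 h6 h7
    obtain ⟨h8, h9⟩ := hcyc q hq h5 h6
    subst hq
    apply hnA
    haveI := preprim_of_A H hA
    exact Cfsg.Agent.S0713.result H ‹_› hp (by simp) (by simpa using h7) h8 h9 hzH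
  have h2 := hp.two_le
  have hpow : z ^ p = 1 := by
    rw [← hzo]
    exact pow_orderOf_eq_one z
  interval_cases p
  · exact Or.inl hpow
  · exact Or.inr hpow
  · exact absurd hp (by norm_num)
  · exact (hjord 5 rfl (by omega) (by norm_num) (by norm_num)).elim
  · exact absurd hp (by norm_num)
  · exact (hjord 7 rfl (by omega) (by norm_num) (by norm_num)).elim
  · exact absurd hp (by norm_num)
  · exact absurd hp (by norm_num)

/-! ### the conclusion for the `M` targets -/

/-- base points -/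
def b4 : Fin 4 ↪ Fin 11 := Fin.castLEEmb (by norm_num)

def Trans4 (H : Subgroup P) : Prop := ∀ x : Fin 4 ↪ Fin 11, ∃ g ∈ H, ∀ i, g (b4 i) = x i

def Fix4 (H : Subgroup P) : Prop := ∀ g ∈ H, (∀ i, g (b4 i) = b4 i) → g = 1

def nth : List ℕ → ℕ → ℕ
  | [], _ => 0
  | a :: _, 0 => a
  | _ :: l, n + 1 => nth l n

def trOK (u : ℕ) (tr : List (List ℕ)) : Bool :=
  allBelow 4 fun k => allBelow 11 fun x =>
    let lk := match tr, k with
      | a :: _, 0 => a
      | _ :: a :: _, 1 => a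
      | _ :: _ :: a :: _, 2 => a
      | _ :: _ :: _ :: a :: _, 3 => a
      | _, _ => []
    !(Nat.ble k x) || (Nat.beq (evW wf u u (nth lk x) k) x &&
      allBelow k fun j => Nat.beq (evW wf u u (nth lk x) j) j)

theorem trans4_of_steps (H : Subgroup P)
    (h : ∀ k (_ : k < 4), ∀ x : Fin 11, k ≤ x.val → ∃ t ∈ H, (t ⟨k, by omega⟩).val = x.val ∧
      ∀ j (hj : j < k), (t ⟨j, by omega⟩).val = j) : Trans4 H := by
  intro x
  have key : ∀ n, n ≤ 4 → ∃ g ∈ H, ∀ i : Fin 4, i.val < n → g (b4 i) = x i := by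
    intro n
    induction n with
    | zero =>
      intro _
      exact ⟨1, H.one_mem, fun i hi => by omega⟩
    | succ n ih =>
      intro hn
      obtain ⟨g, hg, hgx⟩ := ih (by omega)
      have hn4 : n < 4 := by omega
      let x' : Fin 11 := g⁻¹ (x ⟨n, hn4⟩)
      have hx' : n ≤ x'.val := by
        by_contra hlt
        push Not at hlt
        have hlt4 : x'.val < 4 := by omega
        have h1 := hgx ⟨x'.val, hlt4⟩ hlt
        have h2 : b4 ⟨x'.val, hlt4⟩ = x' := Fin.ext rfl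
        rw [h2] at h1
        have h3 : g x' = x ⟨n, hn4⟩ := by simp [x']
        rw [h3] at h1
        have h4 := x.injective h1
        have h5 := congrArg Fin.val h4
        simp only at h5
        omega
      obtain ⟨t, ht, ht1, ht2⟩ := h n hn4 x' hx'
      refine ⟨g * t, H.mul_mem hg ht, ?_⟩
      intro i hi
      rw [Equiv.Perm.mul_apply]
      by_cases hin : i.val = n
      · have h6 : b4 i = ⟨n, by omega⟩ := Fin.ext hin
        have h7 : t ⟨n, by omega⟩ = x' := Fin.ext ht1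
        rw [h6, h7]
        have h8 : i = ⟨n, hn4⟩ := Fin.ext hin
        rw [h8]
        simp [x']
      · have hi' : i.val < n := by omega
        have h6 : t (b4 i) = b4 i := by
          apply Fin.ext
          exact ht2 i.val hi'
        rw [h6]
        exact hgx i hi'
  obtain ⟨g, hg, hgx⟩ := key 4 le_rfl
  exact ⟨g, hg, fun i => hgx i i.2⟩

theorem trans4_of_trOK (H : Subgroup P) (hA : A ∈ H) (hB : B ∈ H) {y : P} (hy : y ∈ H) (u : ℕ)
    (hu : enc y = u) (tr : List (List ℕ)) (h : trOK u tr = true) : Trans4 H := by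
  apply trans4_of_steps
  intro k hk x hkx
  have h1 := allBelow_spec _ _ h k hk
  have h2 := allBelow_spec _ _ h1 x.val x.2
  set lk := (match tr, k with
      | a :: _, 0 => a
      | _ :: a :: _, 1 => a
      | _ :: _ :: a :: _, 2 => a
      | _ :: _ :: _ :: a :: _, 3 => a
      | _, _ => []) with hlk
  simp only [Bool.or_eq_true, Bool.not_eq_true', Bool.and_eq_true] at h2
  rcases h2 with h2 | ⟨h2, h3⟩
  · have : Nat.ble k x.val = true := Nat.ble_eq.mpr hkx
    rw [this] at h2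
    exact absurd h2 (by simp)
  · subst hu
    refine ⟨wP wf y y (nth lk x.val), wP_mem hA hB hy hy _ _, ?_, ?_⟩
    · have h4 := evW_spec y y wf (nth lk x.val) ⟨k, by omega⟩
      rw [← h4]
      exact Nat.eq_of_beq_eq_true h2
    · intro j hj
      have h4 := evW_spec y y wf (nth lk x.val) ⟨j, by omega⟩
      rw [← h4]
      have h5 := allBelow_spec _ _ h3 j hj
      exact Nat.eq_of_beq_eq_true h5

/-- From the tables: a target of `M` type gives a sharply four-transitive group. -/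
theorem caseM (H : Subgroup P) (hA : A ∈ H) (hB : B ∈ H) (hnA : ¬ alternatingGroup (Fin 11) ≤ H)
    {y : P} (hy : y ∈ H) (u : ℕ) (hu : enc y = u) (T : BT)
    (h2 : chk ok2 (leaf2 [] T u) 7 4 id = true) (h3 : chk ok3 (leaf3 [] T u) 7 4 id = true)
    (tr : List (List ℕ)) (htr : trOK u tr = true) : Trans4 H ∧ Fix4 H := by
  refine ⟨trans4_of_trOK H hA hB hy u hu tr htr, ?_⟩
  intro g hg hfix
  by_contra hne
  have hfix' : ∀ j, j < 4 → vl g j = j := by
    intro j hj
    have h4 := hfix ⟨j, hj⟩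
    have h5 := vl_fin g (b4 ⟨j, hj⟩)
    rw [h4] at h5
    exact h5
  obtain ⟨z, hz, hz1, hzfix, hz23⟩ := reduce_prime H hA hnA 4 (by norm_num) (by norm_num) hg hne hfix'
  subst hu
  have hfin : (∃ w ∈ H, w.IsThreeCycle) ∨ (∃ w ∈ H, enc w ∈ ([] : List ℕ)) := by
    rcases hz23 with hz2 | hz3
    · exact chk2_main [] T 4 (by norm_num) y h2 hA hB hy hz hz2 hz1 hzfix
    · exact chk3_main [] T 4 (by norm_num) y h3 hA hB hy hz hz3 hz1 hzfix
  rcases hfin with ⟨w, hw, hw3⟩ | ⟨w, _, hw⟩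
  · exact no_three H hA hnA hw hw3
  · simp at hw

/-- From the tables: a target of `L` type either gives an `M` target, or a trivial three-point
stabilizer. -/
theorem caseL (H : Subgroup P) (hA : A ∈ H) (hB : B ∈ H) (hnA : ¬ alternatingGroup (Fin 11) ≤ H)
    {y : P} (hy : y ∈ H) (u : ℕ) (hu : enc y = u) (T : BT) (tg : List ℕ)
    (h2 : chk ok2 (leaf2 tg T u) 8 3 id = true) (h3 : chk ok3 (leaf3 tg T u) 8 3 id = true) :
    (∃ w ∈ H, enc w ∈ tg) ∨ (∀ g ∈ H, (∀ j, j < 3 → vl g j = j) → g = 1) := by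
  by_cases hex : ∃ g ∈ H, (∀ j, j < 3 → vl g j = j) ∧ g ≠ 1
  · left
    obtain ⟨g, hg, hfix, hne⟩ := hex
    obtain ⟨z, hz, hz1, hzfix, hz23⟩ :=
      reduce_prime H hA hnA 3 (by norm_num) (by norm_num) hg hne hfix
    subst hu
    have hfin : (∃ w ∈ H, w.IsThreeCycle) ∨ (∃ w ∈ H, enc w ∈ tg) := by
      rcases hz23 with hz2 | hz3
      · exact chk2_main tg T 3 (by norm_num) y h2 hA hB hy hz hz2 hz1 hzfix
      · exact chk3_main tg T 3 (by norm_num) y h3 hA hB hy hz hz3 hz1 hzfix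
    rcases hfin with ⟨w, hw, hw3⟩ | h
    · exact (no_three H hA hnA hw hw3).elim
    · exact h
  · right
    intro g hg hfix
    by_contra hne
    exact hex ⟨g, hg, hfix, hne⟩

/-- tests on the elements of order two and three -/
def rOK (u r : ℕ) : Bool :=
  pow2Id (packW u u r) && !(Nat.beq (packW u u r) idc) && Nat.beq (ev (packW u u r) 0) 0 &&
    Nat.beq (ev (packW u u r) 1) 1

def yOK (u : ℕ) : Bool :=
  pow3Id u && !(Nat.beq u idc) && Nat.beq (ev u 0) 0 && Nat.beq (ev u 1) 1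

theorem vl_eq_of_ev (g : P) (j : ℕ) (hj : j < 11) (h : ev (enc g) j = j) : vl g j = j := by
  have h1 := ev_enc g ⟨j, hj⟩
  have h2 := vl_fin g ⟨j, hj⟩
  simp only at h1 h2
  rw [h2, ← h1, h]

theorem of_enc_test (g : P) (h : (Nat.beq (enc g) idc) = false) : g ≠ 1 := by
  rintro rfl
  rw [enc_one] at h
  revert h
  decide

theorem yOK_spec (y : P) (h : yOK (enc y) = true) :
    y ^ 3 = 1 ∧ y ≠ 1 ∧ (∀ j, j < 2 → vl y j = j) := by
  unfold yOK at h
  simp only [Bool.and_eq_true, Bool.not_eq_true'] at h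
  obtain ⟨⟨⟨h1, h2⟩, h3⟩, h4⟩ := h
  refine ⟨(pow3Id_enc y).mp h1, of_enc_test y h2, ?_⟩
  intro j hj
  interval_cases j
  · exact vl_eq_of_ev y 0 (by norm_num) (Nat.eq_of_beq_eq_true h3)
  · exact vl_eq_of_ev y 1 (by norm_num) (Nat.eq_of_beq_eq_true h4)

theorem rOK_spec (y : P) (r : ℕ) (h : rOK (enc y) r = true) :
    (wP wf y y r) ^ 2 = 1 ∧ wP wf y y r ≠ 1 ∧ (∀ j, j < 2 → vl (wP wf y y r) j = j) := by
  unfold rOK at h
  rw [packW_spec] at h
  simp only [Bool.and_eq_true, Bool.not_eq_true'] at h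
  obtain ⟨⟨⟨h1, h2⟩, h3⟩, h4⟩ := h
  refine ⟨(pow2Id_enc _).mp h1, of_enc_test _ h2, ?_⟩
  intro j hj
  interval_cases j
  · exact vl_eq_of_ev _ 0 (by norm_num) (Nat.eq_of_beq_eq_true h3)
  · exact vl_eq_of_ev _ 1 (by norm_num) (Nat.eq_of_beq_eq_true h4)

/-- From the tables: the first level. -/
theorem caseA (H : Subgroup P) (hA : A ∈ H) (hB : B ∈ H) (hnA : ¬ alternatingGroup (Fin 11) ≤ H)
    (T2 T3 : ℕ → Bool) (T : BT) (tg : List ℕ) (hT2 : T2 = leaf2 tg T idc)
    (hT3 : T3 = leaf3 tg T idc)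
    (h2 : chk ok2 T2 9 2 id = true) (h3 : chk ok3 T3 9 2 id = true)
    {g : P} (hg : g ∈ H) (hne : g ≠ 1) (hfix : ∀ j, j < 2 → vl g j = j) :
    ∃ w ∈ H, enc w ∈ tg := by
  obtain ⟨z, hz, hz1, hzfix, hz23⟩ :=
    reduce_prime H hA hnA 2 (by norm_num) (by norm_num) hg hne hfix
  subst hT2 hT3
  have h2' : chk ok2 (leaf2 tg T (enc 1)) (11 - 2) 2 id = true := by
    rw [enc_one]; exact h2
  have h3' : chk ok3 (leaf3 tg T (enc 1)) (11 - 2) 2 id = true := by
    rw [enc_one]; exact h3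
  have hfin : (∃ w ∈ H, w.IsThreeCycle) ∨ (∃ w ∈ H, enc w ∈ tg) := by
    rcases hz23 with hz2 | hz3
    · exact chk2_main tg T 2 (by norm_num) 1 h2' hA hB H.one_mem hz hz2 hz1 hzfix
    · exact chk3_main tg T 2 (by norm_num) 1 h3' hA hB H.one_mem hz hz3 hz1 hzfix
  rcases hfin with ⟨w, hw, hw3⟩ | h
  · exact (no_three H hA hnA hw hw3).elim
  · exact h

/-! ### orders -/

/-- two base points -/
def b2 : Fin 2 ↪ Fin 11 := Fin.castLEEmb (by norm_num)

theorem vl_iff (g : P) (j : ℕ) (hj : j < 11) : vl g j = j ↔ g ⟨j, hj⟩ = ⟨j, hj⟩ := by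
  have h2 := vl_fin g ⟨j, hj⟩
  simp only at h2
  rw [h2]
  constructor
  · intro h; exact Fin.ext h
  · intro h; rw [h]

theorem mem_stab_b2 (H : Subgroup P) (g : H) :
    g ∈ stabilizer H b2 ↔ ∀ j, j < 2 → vl (g : P) j = j := by
  rw [mem_stabilizer_iff]
  constructor
  · intro h j hj
    rw [vl_iff _ j (by omega)]
    have h1 := congrArg (fun e : Fin 2 ↪ Fin 11 => e ⟨j, hj⟩) h
    exact h1
  · intro h
    ext i
    have h1 := h i.val i.2
    rw [vl_iff _ i.val (by omega)] at h1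
    exact congrArg Fin.val h1

theorem card_eq_mul_stab (H : Subgroup P) (h2 : IsMultiplyPretransitive H (Fin 11) 2) :
    Nat.card H = 110 * Nat.card (stabilizer H b2) := by
  have h1 : Nat.card (orbit H b2) * Nat.card (stabilizer H b2) = Nat.card H := by
    rw [← Nat.card_prod]
    exact Nat.card_congr (orbitProdStabilizerEquivGroup H b2)
  have h3 : orbit H b2 = Set.univ := Set.eq_univ_of_forall fun x => by
    obtain ⟨g, hg⟩ := h2.exists_smul_eq b2 x
    exact ⟨g, hg⟩
  rw [h3, Nat.card_coe_set_eq, Set.ncard_univ, Nat.card_eq_fintype_card,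
    Fintype.card_embedding_eq] at h1
  rw [← h1]
  rfl

theorem exists_fix_of_nonsolvable (H : Subgroup P) (hns : ¬ Group.IsSolvable H)
    (h2 : IsMultiplyPretransitive H (Fin 11) 2) :
    ∃ g ∈ H, g ≠ 1 ∧ ∀ j, j < 2 → vl g j = j := by
  by_contra hno
  push Not at hno
  apply hns
  have hS : stabilizer H b2 = ⊥ := by
    rw [eq_bot_iff]
    intro g hg
    rw [Subgroup.mem_bot]
    by_contra hne
    have h3 : (g : P) ≠ 1 := fun e => hne (Subtype.ext e)
    obtain ⟨j, hj, hj2⟩ := hno g g.2 h3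
    exact hj2 ((mem_stab_b2 H g).mp hg j hj)
  have h4 := card_eq_mul_stab H h2
  rw [hS, Subgroup.card_bot, mul_one] at h4
  apply solvable_of_card_squarefree
  rw [h4]
  have e : (110 : ℕ) = 10 * 11 := rfl
  rw [e, Nat.squarefree_mul (by norm_num)]
  refine ⟨?_, (by norm_num : Nat.Prime 11).prime.irreducible.squarefree⟩
  have e2 : (10 : ℕ) = 2 * 5 := rfl
  rw [e2, Nat.squarefree_mul (by norm_num)]
  exact ⟨(by norm_num : Nat.Prime 2).prime.irreducible.squarefree,
    (by norm_num : Nat.Prime 5).prime.irreducible.squarefree⟩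

theorem card_of_L (H : Subgroup P) (h2 : IsMultiplyPretransitive H (Fin 11) 2)
    (hc : ∀ g ∈ H, (∀ j, j < 3 → vl g j = j) → g = 1) {y r : P} (hy : y ∈ H) (hr : r ∈ H)
    (hy3 : y ^ 3 = 1) (hy1 : y ≠ 1) (hyfix : ∀ j, j < 2 → vl y j = j)
    (hr2 : r ^ 2 = 1) (hr1 : r ≠ 1) (hrfix : ∀ j, j < 2 → vl r j = j) : Nat.card H = 660 := by
  classical
  have hcard := card_eq_mul_stab H h2
  set S := stabilizer H b2 with hS
  haveI : Fact (Nat.Prime 2) := ⟨by norm_num⟩
  haveI : Fact (Nat.Prime 3) := ⟨by norm_num⟩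
  let y' : S := ⟨⟨y, hy⟩, (mem_stab_b2 H _).mpr hyfix⟩
  let r' : S := ⟨⟨r, hr⟩, (mem_stab_b2 H _).mpr hrfix⟩
  have o3 : orderOf y' = 3 := by
    apply orderOf_eq_prime
    · apply Subtype.ext
      apply Subtype.ext
      exact hy3
    · intro e
      apply hy1
      exact congrArg (fun s : S => ((s : H) : P)) e
  have o2 : orderOf r' = 2 := by
    apply orderOf_eq_prime
    · apply Subtype.ext
      apply Subtype.ext
      exact hr2
    · intro e
      apply hr1
      exact congrArg (fun s : S => ((s : H) : P)) e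
  have d3 : 3 ∣ Nat.card S := o3 ▸ orderOf_dvd_natCard y'
  have d2 : 2 ∣ Nat.card S := o2 ▸ orderOf_dvd_natCard r'
  have hle : Nat.card S ≤ 11 := by
    let f : S → Fin 11 := fun g => ((g : H) : P) 2
    have hinj : Function.Injective f := by
      intro a b hab
      have hab' : ((a : H) : P) 2 = ((b : H) : P) 2 := hab
      have ha := (mem_stab_b2 H a).mp a.2
      have hb := (mem_stab_b2 H b).mp b.2
      have key : ((b : H) : P)⁻¹ * ((a : H) : P) = 1 := by
        apply hc _ (H.mul_mem (H.inv_mem b.1.2) a.1.2)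
        intro j hj
        rw [vl_iff _ j (by omega), Equiv.Perm.mul_apply, Equiv.Perm.inv_eq_iff_eq]
        interval_cases j
        · rw [(vl_iff _ 0 (by norm_num)).mp (ha 0 (by norm_num)),
            (vl_iff _ 0 (by norm_num)).mp (hb 0 (by norm_num))]
        · rw [(vl_iff _ 1 (by norm_num)).mp (ha 1 (by norm_num)),
            (vl_iff _ 1 (by norm_num)).mp (hb 1 (by norm_num))]
        · exact hab'
      apply Subtype.ext
      apply Subtype.ext
      exact (inv_mul_eq_one.mp key).symm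
    have := Nat.card_le_card_of_injective f hinj
    simpa using this
  have hpos : 0 < Nat.card S := Nat.card_pos
  have h6 : Nat.card S = 6 := by omega
  rw [hcard, h6]

end Cfsg.Agent.Lib.Perm.Deg11
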