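import Cfsg.Agent.Lib.Perm.Deg11.Core
import Cfsg.Agent.Lib.Perm.Deg11.Steps

set_option autoImplicit false
set_option maxRecDepth 100000

namespace Cfsg.Agent.Lib.Perm.Deg11

def trM1 : List (List ℕ) :=
  [[0, 1, 17, 177, 433, 3505, 2833, 6929, 53681, 2993, 7089], [0, 0, 3547, 11, 3515, 219, 48603, 769499, 56763, 187, 12303835], [0, 0, 0, 13, 14532027, 221, 777149, 14408637, 48571, 900539, 232512445], [0, 0, 0, 0, 3720199133, 3149781979, 58816573905, 7803359697, 806298172177, 76522052561, 232504765]]

theorem trM1_ok : trOK 6913406817040 trM1 = true := by decide +kernel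

def trM2 : List (List ℕ) :=
  [[0, 1, 17, 177, 433, 4529, 2833, 6929, 56081, 2993, 53681], [0, 0, 3515, 11, 48059, 3003, 48571, 119217, 900539, 187, 73137], [0, 0, 0, 13, 777147, 232512443, 1167633, 768987, 12434365, 221, 14408635], [0, 0, 0, 0, 3151044017, 59523185629, 3686521821, 952159293725, 500243729, 3183205819, 299700669]]

theorem trM2_ok : trOK 5666811581200 trM2 = true := by decide +kernel

def rL1 : ℕ := 28433841

theorem rL1_ok : rOK 6979917947920 rL1 = true := by decide +kernel

theorem yL1_ok : yOK 6979917947920 = true := by decide +kernel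

def rL2 : ℕ := 219266001

theorem rL2_ok : rOK 8956242261520 rL2 = true := by decide +kernel

theorem yL2_ok : yOK 8956242261520 = true := by decide +kernel


end Cfsg.Agent.Lib.Perm.Deg11
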