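import Mathlib
import Cfsg.Agent.S0675
import Cfsg.Agent.S0999
import Cfsg.Agent.S1013
import Cfsg.Agent.Lib.Compute.SmallField
import Cfsg.Agent.Lib.Perm.Deg11.Steps
import Cfsg.Agent.Lib.Perm.Deg11.TabExtra
import Cfsg.Agent.Lib.Perm.Deg11.TabA
import Cfsg.Agent.Lib.Perm.Deg11.TabL1
import Cfsg.Agent.Lib.Perm.Deg11.TabL2
import Cfsg.Agent.Lib.Perm.Deg11.TabM1
import Cfsg.Agent.Lib.Perm.Deg11.TabM2

/-!
# Degree eleven: the main dichotomy
-/

set_option autoImplicit false
set_option linter.style.haveILetI false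

namespace Cfsg.Agent.Lib.Perm.Deg11

open Equiv Equiv.Perm MulAction Cfsg.Agent.Lib.Perm.Basic

theorem caseM1 (H : Subgroup P) (hA : A ∈ H) (hB : B ∈ H) (hnA : ¬ alternatingGroup (Fin 11) ≤ H)
    {y : P} (hy : y ∈ H) (hu : enc y = 6913406817040) : Trans4 H ∧ Fix4 H :=
  caseM H hA hB hnA hy _ hu tM1 cM12 cM13 trM1 trM1_ok

theorem caseM2 (H : Subgroup P) (hA : A ∈ H) (hB : B ∈ H) (hnA : ¬ alternatingGroup (Fin 11) ≤ H)
    {y : P} (hy : y ∈ H) (hu : enc y = 5666811581200) : Trans4 H ∧ Fix4 H :=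
  caseM H hA hB hnA hy _ hu tM2 cM22 cM23 trM2 trM2_ok

theorem caseMs (H : Subgroup P) (hA : A ∈ H) (hB : B ∈ H) (hnA : ¬ alternatingGroup (Fin 11) ≤ H)
    (h : ∃ w ∈ H, enc w ∈ [6913406817040, 5666811581200]) : Trans4 H ∧ Fix4 H := by
  obtain ⟨w, hw, hwt⟩ := h
  simp only [List.mem_cons, List.not_mem_nil, or_false] at hwt
  rcases hwt with hwt | hwt
  · exact caseM1 H hA hB hnA hw hwt
  · exact caseM2 H hA hB hnA hw hwt

/-- The dichotomy in coordinates. -/
theorem main_fin (H : Subgroup P) (hA : A ∈ H) (hns : ¬ Group.IsSolvable H)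
    (hnA : ¬ alternatingGroup (Fin 11) ≤ H) : (Trans4 H ∧ Fix4 H) ∨ Nat.card H = 660 := by
  have hB := B_mem H hA hns
  haveI := pretrans_of_A H hA
  have h2 : IsMultiplyPretransitive H (Fin 11) 2 :=
    (Cfsg.Agent.S0675.result (by simp; norm_num) H).resolve_left hns
  obtain ⟨g, hg, hne, hfix⟩ := exists_fix_of_nonsolvable H hns h2
  obtain ⟨w, hw, hwt⟩ := caseA H hA hB hnA lA2 lA3 tA _ rfl rfl cA2 cA3 hg hne hfix
  simp only [List.mem_cons, List.not_mem_nil, or_false] at hwt
  rcases hwt with hwt | hwt | hwt | hwt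
  · exact Or.inl (caseM1 H hA hB hnA hw hwt)
  · exact Or.inl (caseM2 H hA hB hnA hw hwt)
  · rcases caseL H hA hB hnA hw _ hwt tL1 _ cL12 cL13 with h | h
    · exact Or.inl (caseMs H hA hB hnA h)
    · right
      have hy := yOK_spec w (by rw [hwt]; exact yL1_ok)
      have hr := rOK_spec w rL1 (by rw [hwt]; exact rL1_ok)
      exact card_of_L H h2 h hw (wP_mem hA hB hw hw _ _) hy.1 hy.2.1 hy.2.2 hr.1 hr.2.1 hr.2.2
  · rcases caseL H hA hB hnA hw _ hwt tL2 _ cL22 cL23 with h | h
    · exact Or.inl (caseMs H hA hB hnA h)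
    · right
      have hy := yOK_spec w (by rw [hwt]; exact yL2_ok)
      have hr := rOK_spec w rL2 (by rw [hwt]; exact rL2_ok)
      exact card_of_L H h2 h hw (wP_mem hA hB hw hw _ _) hy.1 hy.2.1 hy.2.2 hr.1 hr.2.1 hr.2.2

/-- a normal eleven-cycle bounds the order of the group -/
theorem card_le_of_normal (H : Subgroup P) (hA : A ∈ H)
    (hn : ∀ t ∈ H, ∃ k : ℕ, t * A * t⁻¹ = A ^ k) : Nat.card H ≤ 121 := by
  classical
  let f : H → Fin 11 × Fin 11 := fun t => ((t : P) 0, (t : P) 1)
  have hinj : Function.Injective f := by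
    intro a b hab
    have h0 : (a : P) 0 = (b : P) 0 := congrArg Prod.fst hab
    have h1 : (a : P) 1 = (b : P) 1 := congrArg Prod.snd hab
    obtain ⟨k, hk⟩ := hn a a.2
    obtain ⟨l, hl⟩ := hn b b.2
    apply Subtype.ext
    refine Equiv.ext fun x => Fin.ext ?_
    rw [affine_of_conj a k hk x, affine_of_conj b l hl x, h0]
    have h2 := affine_of_conj a k hk 1
    have h3 := affine_of_conj b l hl 1
    rw [h1] at h2
    rw [h2] at h3
    rw [h0] at h3
    simp only [show ((1 : Fin 11)).val = 1 from rfl, mul_one] at h3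
    have h4 : k ≡ l [MOD 11] := by
      unfold Nat.ModEq
      omega
    exact Nat.ModEq.add_left _ (h4.mul_right _)
  have := Nat.card_le_card_of_injective f hinj
  simpa using this

theorem simple_of_660 (H : Subgroup P) (hA : A ∈ H) (hc : Nat.card H = 660) : IsSimpleGroup H := by
  classical
  haveI : Fact (Nat.Prime 11) := ⟨by norm_num⟩
  haveI := pretrans_of_A H hA
  let a : H := ⟨A, hA⟩
  let Z : Subgroup H := Subgroup.zpowers a
  have hoa : orderOf a = 11 := by
    rw [← Subgroup.orderOf_coe, orderOf_A]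
  have hZ : Nat.card Z = 11 := by
    rw [Nat.card_zpowers, hoa]
  have hf := factor_eleven H hA
  let S : Sylow 11 H := Sylow.ofCard Z (by rw [hZ, hf, pow_one])
  have hSZ : (S : Subgroup H) = Z := rfl
  have hidx : (S : Subgroup H).index = 60 := by
    have h1 := Subgroup.card_mul_index (S : Subgroup H)
    rw [show Nat.card (S : Subgroup H) = 11 from hZ, hc] at h1
    omega
  have hd : Nat.card (Sylow 11 H) ∣ 60 := hidx ▸ Sylow.card_dvd_index S
  have hmod : Nat.card (Sylow 11 H) ≡ 1 [MOD 11] := card_sylow_modEq_one 11 H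
  have hle : Nat.card (Sylow 11 H) ≤ 60 := Nat.le_of_dvd (by norm_num) hd
  have hn12 : Nat.card (Sylow 11 H) = 1 ∨ Nat.card (Sylow 11 H) = 12 := by
    unfold Nat.ModEq at hmod
    generalize Nat.card (Sylow 11 H) = n at hd hmod hle
    interval_cases n <;> simp_all
  have hne1 : Nat.card (Sylow 11 H) ≠ 1 := by
    intro h1
    haveI : Subsingleton (Sylow 11 H) := (Nat.card_eq_one_iff_unique.mp h1).1
    have hnorm : (S : Subgroup H).Normal := Sylow.normal_of_subsingleton S
    have hle := card_le_of_normal H hA (by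
      intro t ht
      have h2 := hnorm.conj_mem a (Subgroup.mem_zpowers a) ⟨t, ht⟩
      obtain ⟨j, hj⟩ := Subgroup.mem_zpowers_iff.mp h2
      refine ⟨(j % 11).toNat, ?_⟩
      have hj2 : t * A * t⁻¹ = A ^ j := (congrArg Subtype.val hj).symm
      rw [hj2, ← zpow_natCast, Int.toNat_of_nonneg (Int.emod_nonneg _ (by norm_num))]
      have := zpow_mod_orderOf A j
      rw [orderOf_A] at this
      exact this.symm)
    omega
  have h12 : Nat.card (Sylow 11 H) = 12 := hn12.resolve_left hne1
  refine Cfsg.Agent.S1013.result (p := 11) (by simp) H S (by rw [h12]; norm_num) ?_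
  have hN : Nat.card (Subgroup.normalizer ((S : Subgroup H) : Set H)) = 55 := by
    have h0 : Nat.card (Sylow 11 H) = (Subgroup.normalizer ((S : Subgroup H) : Set H)).index :=
      Sylow.card_eq_index_normalizer S
    have h1 := Subgroup.card_mul_index (Subgroup.normalizer ((S : Subgroup H) : Set H))
    rw [← h0, h12, hc] at h1
    omega
  have h3 := Subgroup.card_mul_index
    ((S : Subgroup H).subgroupOf (Subgroup.normalizer ((S : Subgroup H) : Set H)))
  have h4 : Nat.card ((S : Subgroup H).subgroupOf (Subgroup.normalizer ((S : Subgroup H) : Set H))) =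
      11 := by
    rw [Nat.card_congr (Subgroup.subgroupOfEquivOfLe Subgroup.le_normalizer).toEquiv]
    exact hZ
  rw [h4, hN] at h3
  have h5 : ((S : Subgroup H).subgroupOf (Subgroup.normalizer ((S : Subgroup H) : Set H))).index = 5 := by
    omega
  rw [h5]
  norm_num

theorem psl_of_660 {G : Type*} [Group G] [Finite G] [IsSimpleGroup G] (hc : Nat.card G = 660) :
    Nonempty (G ≃* Matrix.ProjectiveSpecialLinearGroup (Fin 2) (ZMod 11)) := by
  have h11 : Nat.Prime 11 := by norm_num
  have hnc : ¬ IsCyclic G := by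
    intro hcyc
    letI : CommGroup G := IsCyclic.commGroup
    have := IsSimpleGroup.prime_card (α := G)
    rw [hc] at this
    revert this
    norm_num
  rcases Cfsg.Agent.S0999.result hnc 11 h11 (by rw [hc]; norm_num) (by rw [hc]; norm_num) with
    ⟨F, _, _, hF, _, ⟨e⟩⟩ | ⟨m, F, _, _, _, hm, _, _⟩
  · exact ⟨e.trans (Cfsg.Agent.Lib.Compute.SmallField.pslCongr
      (ZMod.ringEquivOfPrime F h11 hF).symm)⟩
  · exfalso
    have h10 : 2 ^ m = 10 := by omega
    have hm4 : m < 4 := by
      by_contra hge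
      push Not at hge
      have := Nat.pow_le_pow_right (by norm_num : 0 < 2) hge
      omega
    interval_cases m <;> omega

end Cfsg.Agent.Lib.Perm.Deg11
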