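import Cfsg.Agent.Lib.Perm.Deg11.Core
import Cfsg.Agent.Lib.Perm.Deg11.TabAData

set_option autoImplicit false
set_option maxRecDepth 100000

namespace Cfsg.Agent.Lib.Perm.Deg11

theorem pA3_2_0 : pc ok3 (lA3) 7 2 id 2 0 = true := by decide +kernel

theorem pA3_2_1 : pc ok3 (lA3) 7 2 id 2 1 = true := by decide +kernel

theorem pA3_2_2 : pc ok3 (lA3) 7 2 id 2 2 = true := by decide +kernel

theorem pA3_2_3 : pc ok3 (lA3) 7 2 id 2 3 = true := by decide +kernel

theorem pA3_2_4 : pc ok3 (lA3) 7 2 id 2 4 = true := by decide +kernel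

theorem pA3_2_5 : pc ok3 (lA3) 7 2 id 2 5 = true := by decide +kernel

theorem pA3_2_6 : pc ok3 (lA3) 7 2 id 2 6 = true := by decide +kernel

theorem pA3_2_7 : pc ok3 (lA3) 7 2 id 2 7 = true := by decide +kernel

theorem pA3_2_8 : pc ok3 (lA3) 7 2 id 2 8 = true := by decide +kernel

theorem pA3_2_9 : pc ok3 (lA3) 7 2 id 2 9 = true := by decide +kernel

theorem pA3_2_10 : pc ok3 (lA3) 7 2 id 2 10 = true := by decide +kernel

theorem pA3_3_0 : pc ok3 (lA3) 7 2 id 3 0 = true := by decide +kernel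

theorem pA3_3_1 : pc ok3 (lA3) 7 2 id 3 1 = true := by decide +kernel

theorem pA3_3_2 : pc ok3 (lA3) 7 2 id 3 2 = true := by decide +kernel

theorem pA3_3_3 : pc ok3 (lA3) 7 2 id 3 3 = true := by decide +kernel

theorem pA3_3_4 : pc ok3 (lA3) 7 2 id 3 4 = true := by decide +kernel

theorem pA3_3_5 : pc ok3 (lA3) 7 2 id 3 5 = true := by decide +kernel

theorem pA3_3_6 : pc ok3 (lA3) 7 2 id 3 6 = true := by decide +kernel

theorem pA3_3_7 : pc ok3 (lA3) 7 2 id 3 7 = true := by decide +kernel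

theorem pA3_3_8 : pc ok3 (lA3) 7 2 id 3 8 = true := by decide +kernel

theorem pA3_3_9 : pc ok3 (lA3) 7 2 id 3 9 = true := by decide +kernel

theorem pA3_3_10 : pc ok3 (lA3) 7 2 id 3 10 = true := by decide +kernel

theorem pA3_4_0 : pc ok3 (lA3) 7 2 id 4 0 = true := by decide +kernel

theorem pA3_4_1 : pc ok3 (lA3) 7 2 id 4 1 = true := by decide +kernel

theorem pA3_4_2 : pc ok3 (lA3) 7 2 id 4 2 = true := by decide +kernel

theorem pA3_4_3 : pc ok3 (lA3) 7 2 id 4 3 = true := by decide +kernel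

theorem pA3_4_4 : pc ok3 (lA3) 7 2 id 4 4 = true := by decide +kernel

theorem pA3_4_5 : pc ok3 (lA3) 7 2 id 4 5 = true := by decide +kernel

theorem pA3_4_6 : pc ok3 (lA3) 7 2 id 4 6 = true := by decide +kernel

theorem pA3_4_7 : pc ok3 (lA3) 7 2 id 4 7 = true := by decide +kernel

theorem pA3_4_8 : pc ok3 (lA3) 7 2 id 4 8 = true := by decide +kernel

theorem pA3_4_9 : pc ok3 (lA3) 7 2 id 4 9 = true := by decide +kernel

theorem pA3_4_10 : pc ok3 (lA3) 7 2 id 4 10 = true := by decide +kernel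


end Cfsg.Agent.Lib.Perm.Deg11
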