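import Cfsg.Agent.Lib.Perm.Deg11.Core
import Cfsg.Agent.Lib.Perm.Deg11.TabAData

set_option autoImplicit false
set_option maxRecDepth 100000

namespace Cfsg.Agent.Lib.Perm.Deg11

theorem pA3_5_0 : pc ok3 (lA3) 7 2 id 5 0 = true := by decide +kernel

theorem pA3_5_1 : pc ok3 (lA3) 7 2 id 5 1 = true := by decide +kernel

theorem pA3_5_2 : pc ok3 (lA3) 7 2 id 5 2 = true := by decide +kernel

theorem pA3_5_3 : pc ok3 (lA3) 7 2 id 5 3 = true := by decide +kernel

theorem pA3_5_4 : pc ok3 (lA3) 7 2 id 5 4 = true := by decide +kernel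

theorem pA3_5_5 : pc ok3 (lA3) 7 2 id 5 5 = true := by decide +kernel

theorem pA3_5_6 : pc ok3 (lA3) 7 2 id 5 6 = true := by decide +kernel

theorem pA3_5_7 : pc ok3 (lA3) 7 2 id 5 7 = true := by decide +kernel

theorem pA3_5_8 : pc ok3 (lA3) 7 2 id 5 8 = true := by decide +kernel

theorem pA3_5_9 : pc ok3 (lA3) 7 2 id 5 9 = true := by decide +kernel

theorem pA3_5_10 : pc ok3 (lA3) 7 2 id 5 10 = true := by decide +kernel

theorem pA3_6_0 : pc ok3 (lA3) 7 2 id 6 0 = true := by decide +kernel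

theorem pA3_6_1 : pc ok3 (lA3) 7 2 id 6 1 = true := by decide +kernel

theorem pA3_6_2 : pc ok3 (lA3) 7 2 id 6 2 = true := by decide +kernel

theorem pA3_6_3 : pc ok3 (lA3) 7 2 id 6 3 = true := by decide +kernel

theorem pA3_6_4 : pc ok3 (lA3) 7 2 id 6 4 = true := by decide +kernel

theorem pA3_6_5 : pc ok3 (lA3) 7 2 id 6 5 = true := by decide +kernel

theorem pA3_6_6 : pc ok3 (lA3) 7 2 id 6 6 = true := by decide +kernel

theorem pA3_6_7 : pc ok3 (lA3) 7 2 id 6 7 = true := by decide +kernel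

theorem pA3_6_8 : pc ok3 (lA3) 7 2 id 6 8 = true := by decide +kernel

theorem pA3_6_9 : pc ok3 (lA3) 7 2 id 6 9 = true := by decide +kernel

theorem pA3_6_10 : pc ok3 (lA3) 7 2 id 6 10 = true := by decide +kernel

theorem pA3_7_0 : pc ok3 (lA3) 7 2 id 7 0 = true := by decide +kernel

theorem pA3_7_1 : pc ok3 (lA3) 7 2 id 7 1 = true := by decide +kernel

theorem pA3_7_2 : pc ok3 (lA3) 7 2 id 7 2 = true := by decide +kernel

theorem pA3_7_3 : pc ok3 (lA3) 7 2 id 7 3 = true := by decide +kernel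

theorem pA3_7_4 : pc ok3 (lA3) 7 2 id 7 4 = true := by decide +kernel

theorem pA3_7_5 : pc ok3 (lA3) 7 2 id 7 5 = true := by decide +kernel

theorem pA3_7_6 : pc ok3 (lA3) 7 2 id 7 6 = true := by decide +kernel

theorem pA3_7_7 : pc ok3 (lA3) 7 2 id 7 7 = true := by decide +kernel

theorem pA3_7_8 : pc ok3 (lA3) 7 2 id 7 8 = true := by decide +kernel

theorem pA3_7_9 : pc ok3 (lA3) 7 2 id 7 9 = true := by decide +kernel

theorem pA3_7_10 : pc ok3 (lA3) 7 2 id 7 10 = true := by decide +kernel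


end Cfsg.Agent.Lib.Perm.Deg11
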